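import Cfsg.Agent.H51.SFourFree.Factor
import Cfsg.Agent.H61.Fusion

/-!
The centre and the elementary Thompson subgroup control strong 2-fusion in an `S₄`-free group, granted
that `S₃`-free groups without normal 2-subgroups have no offenders.
-/

set_option autoImplicit false
set_option linter.style.haveILetI false

namespace Cfsg.Agent.H51.SFourFree

open Subgroup Cfsg.Agent.H61

universe u

/-- The centre, as a functor. -/
abbrev wZ (Q : Type u) [Group Q] : Subgroup Q := Subgroup.center Q

/-- The elementary Thompson subgroup, as a functor. -/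
abbrev wJ (Q : Type u) [Group Q] : Subgroup Q := Cfsg.thompsonSubgroup 2 Q

/-- The involutions of the centre, as a functor. -/
abbrev wO (Q : Type u) [Group Q] : Subgroup Q := Cfsg.omegaOne 2 (Subgroup.center Q)

/-- The pair `{Z, J}`. -/
def pairZJ : Set (∀ (Q : Type u) [Group Q], Subgroup Q) := {wZ, wJ}

theorem induced_wZ {G : Type u} [Group G] (P : Subgroup G) :
    Cfsg.inducedFunctor (G := G) wZ P = P ⊓ centralizer (P : Set G) := H34.map_center P

theorem induced_wJ {G : Type u} [Group G] (P : Subgroup G) :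
    Cfsg.inducedFunctor (G := G) wJ P = Cfsg.thompsonSubgroupOf 2 P := rfl

theorem induced_wO {G : Type u} [Group G] (P : Subgroup G) :
    Cfsg.inducedFunctor (G := G) wO P = Cfsg.omegaOne 2 (P ⊓ centralizer (P : Set G)) := by
  rw [Cfsg.inducedFunctor, wO, H34.map_omegaOne _ P.subtype_injective, H34.map_center]

theorem map_center_equiv {Q R : Type u} [Group Q] [Group R] (e : Q ≃* R) :
    (Subgroup.center Q).map e.toMonoidHom = Subgroup.center R := by
  ext r
  rw [Subgroup.mem_map_equiv, Subgroup.mem_center_iff, Subgroup.mem_center_iff]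
  exact ⟨fun h g => e.symm.injective (by simpa using h (e.symm g)),
    fun h g => e.injective (by simpa using h (e g))⟩

theorem isChar_wZ : Cfsg.IsCharPFunctor.{u} 2 wZ := by
  refine ⟨fun Q _ _ hQ _ => ?_, fun Q R _ _ _ _ e => map_center_equiv e⟩
  haveI : Fact (Nat.Prime 2) := ⟨Nat.prime_two⟩
  haveI := hQ.center_nontrivial
  exact (Subgroup.nontrivial_iff_ne_bot _).1 inferInstance

theorem isChar_wO : Cfsg.IsCharPFunctor.{u} 2 wO := by
  refine ⟨fun Q _ _ hQ _ hbot => ?_, fun Q R _ _ _ _ e => ?_⟩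
  · haveI : Fact (Nat.Prime 2) := ⟨Nat.prime_two⟩
    haveI := hQ.center_nontrivial
    obtain ⟨z, hz⟩ := exists_prime_orderOf_dvd_card' (G := Subgroup.center Q) 2
      ((hQ.to_subgroup _).card_eq_or_dvd.resolve_left (Finite.one_lt_card).ne')
    have h2 : (z : Q) ^ 2 = 1 := by rw [← hz, ← Subgroup.orderOf_coe]; exact pow_orderOf_eq_one _
    have hmem : (z : Q) ∈ wO Q := H34.mem_omegaOne z.2 h2
    rw [hbot, Subgroup.mem_bot] at hmem
    rw [← Subgroup.orderOf_coe, hmem, orderOf_one] at hz
    exact absurd hz (by norm_num)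
  · rw [wO, wO, H34.map_omegaOne _ e.injective, map_center_equiv]

theorem isChar_wJ : Cfsg.IsCharPFunctor.{u} 2 wJ := by
  refine ⟨fun Q _ _ hQ _ hbot => ?_, fun Q R _ _ _ _ e => H34.map_thompsonSubgroup e⟩
  haveI : Fact (Nat.Prime 2) := ⟨Nat.prime_two⟩
  refine H23.thompsonSubgroupOf_ne_bot (p := 2) (hQ.to_subgroup ⊤) top_ne_bot ?_
  have h := H34.map_thompsonSubgroup (p := 2) (Subgroup.topEquiv (G := Q)).symm
  rw [show Cfsg.thompsonSubgroup 2 Q = ⊥ from hbot, Subgroup.map_bot] at h
  rw [Cfsg.thompsonSubgroupOf, ← h, Subgroup.map_bot]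

theorem isChar_pair : ∀ W ∈ pairZJ.{u}, Cfsg.IsCharPFunctor.{u} 2 W := by
  rintro W (rfl | rfl)
  · exact isChar_wZ
  · exact isChar_wJ

/-- Constrained groups, given control in the proper subgroups. -/
theorem fusionOK_constrained (hL : NoOffender.{u}) {X : Type u} [Group X] [Finite X]
    (hchar : centralizer (Cfsg.pCore 2 X : Set X) ≤ Cfsg.pCore 2 X)
    (h4 : ¬ Cfsg.Involves (Equiv.Perm (Fin 4)) X)
    (hsub : ∀ H : Subgroup X, H ≠ ⊤ → FusionOK 2 pairZJ H) : FusionOK 2 pairZJ X := by
  haveI : Fact (Nat.Prime 2) := ⟨Nat.prime_two⟩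
  intro S
  set Z := (S : Subgroup X) ⊓ centralizer ((S : Subgroup X) : Set X) with hZ
  set N := normalizer (Cfsg.omegaOne 2 Z : Set X) with hN
  intro A g _ hA hgA R hR hbase
  by_cases htop : N = ⊤
  · refine hbase _ ⟨wZ, Or.inl rfl, rfl⟩ g ⟨Subgroup.mem_top g, ?_⟩ A hA hgA
    show g ∈ normalizer (Cfsg.inducedFunctor (G := X) wZ (S : Subgroup X) : Set X)
    rw [induced_wZ]
    exact center_normal hchar S htop g
  · have h𝓥 : ∀ W ∈ ({wO, wJ} : Set (∀ (Q : Type u) [Group Q], Subgroup Q)),
        Cfsg.IsCharPFunctor.{u} 2 W := by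
      rintro W (rfl | rfl)
      · exact isChar_wO
      · exact isChar_wJ
    have hfac : FusionOK 2 ({wO, wJ} : Set (∀ (Q : Type u) [Group Q], Subgroup Q)) X :=
      fusionOK_of_factorization h𝓥 (W₁ := wO) (W₂ := wJ) (Or.inl rfl) (Or.inr rfl) fun T x => by
        obtain ⟨a, ha, b, hb, rfl⟩ := factor hL hchar h4 T x
        refine ⟨a, ?_, b, hb, rfl⟩
        rw [induced_wO]
        exact centralizer_le_normalizer _ ha
    have hSN : (S : Subgroup X) ≤ N := by
      refine le_trans ?_ (centralizer_le_normalizer _)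
      exact Subgroup.le_centralizer_iff.1 ((H34.omegaOne_le Z).trans inf_le_right)
    refine hfac S A g (Subgroup.mem_top g) hA hgA R hR ?_
    rintro _ ⟨W, (rfl | rfl), rfl⟩ x hx B hB hxB
    · have hxN : x ∈ normalizer (Cfsg.inducedFunctor (G := X) wO (S : Subgroup X) : Set X) := hx.2
      rw [induced_wO] at hxN
      exact fusAll_subgroup isChar_pair (sylowIn_of_le S hSN) (hsub N htop) B x hxN hB hxB R hR
        fun W hW y hy C hC hyC => hbase W hW y ⟨Subgroup.mem_top y, hy.2⟩ C hC hyC
    · exact hbase _ ⟨wJ, Or.inr rfl, rfl⟩ x hx B hB hxB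

theorem fusionOK_aux (hL : NoOffender.{u}) (n : ℕ) : ∀ (G : Type u) [Group G] [Finite G],
    Nat.card G < n → ¬ Cfsg.Involves (Equiv.Perm (Fin 4)) G → FusionOK 2 pairZJ G := by
  haveI : Fact (Nat.Prime 2) := ⟨Nat.prime_two⟩
  induction n with
  | zero => intro G _ _ h; exact absurd h (Nat.not_lt_zero _)
  | succ n ih =>
    intro G _ _ hn h4
    refine fusion_of_pairs isChar_pair (fun K R hR hC => ?_) (sect_refl (G := G))
    have h4' : ¬ Cfsg.Involves (Equiv.Perm (Fin 4)) (↥K ⧸ R.subgroupOf K) :=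
      fun h => h4 (H83.involves_of_subgroup (H83.involves_of_quotient h))
    refine fusionOK_constrained hL hC h4' fun H hH => ih H ?_ fun h => h4' (H83.involves_of_subgroup h)
    have h1 := card_lt_of_lt (lt_top_iff_ne_top.2 hH)
    rw [Subgroup.card_top] at h1
    have h2 := (sect_of_pair K R).card_le
    omega

/-- `{Z, J}` controls strong fusion in every section of an `S₄`-free group. -/
theorem fusionOK (hL : NoOffender.{u}) {G : Type u} [Group G] [Finite G]
    (h4 : ¬ Cfsg.Involves (Equiv.Perm (Fin 4)) G) (K R : Subgroup G) [(R.subgroupOf K).Normal] :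
    FusionOK 2 pairZJ (↥K ⧸ R.subgroupOf K) :=
  fusionOK_aux hL _ _ (Nat.lt_succ_self _) fun h =>
    h4 (H83.involves_of_subgroup (H83.involves_of_quotient h))

theorem wset_pair (G : Type u) [Group G] :
    Wset G pairZJ = {fun P : Subgroup G => P ⊓ centralizer (P : Set G),
      fun P : Subgroup G => Cfsg.thompsonSubgroupOf 2 P} := by
  rw [Wset, pairZJ, Set.image_pair, funext induced_wZ, funext induced_wJ]

end Cfsg.Agent.H51.SFourFree
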