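import Cfsg.Agent.H69.SFour.Constrained
import Mathlib

/-!
In a constrained `S₄`-free group the elementary Thompson subgroup of a Sylow 2-subgroup `S` centralizes
the normal closure of `Ω₁(Z(S))`, granted that `S₃`-free groups without normal 2-subgroups have no
offenders. So the group is `C(Ω₁(Z(S))) N(J(S))`.
-/

set_option autoImplicit false
set_option linter.style.haveILetI false

namespace Cfsg.Agent.H51.SFourFree

open Subgroup
open Cfsg.Agent.H83 (fixedSub)
open Cfsg.Agent.H61 (cj cj_cj cj_mono cj_eq_of_le mem_normalizer_of_cj)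
open scoped IsMulCommutative

universe u

/-- An `S₃`-free group without nontrivial normal 2-subgroup acting faithfully on an elementary abelian
2-group has no nontrivial offender. -/
def NoOffender : Prop :=
  ∀ (H V : Type u) [Group H] [CommGroup V] [Finite H] [Finite V] (φ : H →* MulAut V),
    Function.Injective φ → (∀ v : V, v * v = 1) → ¬ Cfsg.Involves (Equiv.Perm (Fin 3)) H →
    Cfsg.pCore 2 H = ⊥ → ∀ A : Subgroup H, Cfsg.IsElementaryAbelian 2 A →
    Nat.card V ≤ Nat.card A * Nat.card (fixedSub φ (A : Set H)) → A = ⊥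

variable {X : Type u} [Group X] [Finite X]

/-- `X = C(Ω₁(Z(S))) N(J(S))`. -/
theorem factor (hL : NoOffender.{u}) (hchar : centralizer (Cfsg.pCore 2 X : Set X) ≤ Cfsg.pCore 2 X)
    (h4 : ¬ Cfsg.Involves (Equiv.Perm (Fin 4)) X) (S : Sylow 2 X) (x : X) :
    ∃ a ∈ centralizer
        (Cfsg.omegaOne 2 ((S : Subgroup X) ⊓ centralizer ((S : Subgroup X) : Set X)) : Set X),
      ∃ b ∈ normalizer (Cfsg.thompsonSubgroupOf 2 (S : Subgroup X) : Set X), x = a * b := by
  classical
  haveI : Fact (Nat.Prime 2) := ⟨Nat.prime_two⟩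
  have h3 := H83.not_involves_s3_of_char_two hchar h4
  set Z := (S : Subgroup X) ⊓ centralizer ((S : Subgroup X) : Set X) with hZ
  set ZO := Cfsg.omegaOne 2 Z with hZO
  set Q := Cfsg.pCore 2 X with hQ
  haveI hQn : Q.Normal := H19.pCore_normal 2 X
  have hQS : Q ≤ (S : Subgroup X) := H19.pCore_le_sylow S
  have hZC : Z ≤ centralizer (Q : Set X) :=
    inf_le_right.trans (centralizer_le (show (Q : Set X) ⊆ (S : Subgroup X) from hQS))
  haveI : (centralizer (Q : Set X)).Normal := Subgroup.normal_centralizer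
  set Y := Q ⊓ centralizer (Q : Set X) with hY
  haveI hYn : Y.Normal := Subgroup.normal_inf_normal _ _
  haveI hYc : IsMulCommutative Y := H34.isMulCommutative_inf_centralizer Q
  have hZY : Z ≤ Y := le_inf (hZC.trans hchar) hZC
  set V := Subgroup.normalClosure (ZO : Set X) with hVdef
  haveI hV0n : (Cfsg.omegaOne 2 Y).Normal := ⟨fun y hy g => by
    have h := H34.map_omegaOne (p := 2) (MulAut.conj g).toMonoidHom (MulAut.conj g).injective Y
    have hmem : g * y * g⁻¹ ∈ (Cfsg.omegaOne 2 Y).map (MulAut.conj g).toMonoidHom := ⟨y, hy, rfl⟩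
    rw [h] at hmem
    refine H34.omegaOne_mono ?_ hmem
    rintro _ ⟨z, hz, rfl⟩
    exact hYn.conj_mem z hz g⟩
  have hVY : V ≤ Cfsg.omegaOne 2 Y := Subgroup.normalClosure_le_normal (H34.omegaOne_mono hZY)
  have hVea : Cfsg.IsElementaryAbelian 2 V :=
    H34.isElementaryAbelian_mono H34.omegaOne_isElementaryAbelian hVY
  haveI hVn : V.Normal := Subgroup.normalClosure_normal
  haveI hVc : IsMulCommutative V := hVea.1
  have hV2 : ∀ v : V, v * v = 1 := fun v => Subtype.ext (by
    have := hVea.2 v v.2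
    rwa [pow_two] at this)
  have hVS : V ≤ (S : Subgroup X) :=
    ((hVY.trans (H34.omegaOne_le Y)).trans inf_le_left).trans hQS
  have hZOV : ZO ≤ V := fun z hz => Subgroup.subset_normalClosure hz
  let φ : X →* MulAut V := MulAut.conjNormal
  set f := φ.rangeRestrict with hf
  have hfs : Function.Surjective f := φ.rangeRestrict_surjective
  have hfix : ∀ (x : X) (v : V), φ x v = v ↔ x * (v : X) = v * x := fun x v => by
    rw [Subtype.ext_iff, MulAut.conjNormal_apply, mul_inv_eq_iff_eq_mul]
  have hker : f.ker = centralizer (V : Set X) := by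
    ext y
    rw [MonoidHom.mem_ker, Subgroup.mem_centralizer_iff]
    refine ⟨fun h v hv => ((hfix y ⟨v, hv⟩).1 ?_).symm, fun h => Subtype.ext (MulEquiv.ext fun v => ?_)⟩
    · have : φ y = 1 := congrArg Subtype.val h
      rw [this]; rfl
    · exact (hfix y v).2 (h v v.2).symm
  -- the image has no normal 2-subgroup
  have hcore : Cfsg.pCore 2 φ.range = ⊥ := by
    set M := (Cfsg.pCore 2 φ.range).comap f with hM
    haveI hMn : M.Normal := (H19.pCore_normal 2 φ.range).comap f
    haveI : (centralizer (M : Set X)).Normal := Subgroup.normal_centralizer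
    have hMS : ∀ m ∈ M, ∃ s ∈ (S : Subgroup X), f s = f m := fun m hm => by
      have := H19.pCore_le_sylow (S.mapSurjective hfs) (show f m ∈ Cfsg.pCore 2 φ.range from hm)
      exact this
    have hle : V ≤ centralizer (M : Set X) := by
      refine Subgroup.normalClosure_le_normal fun z hz => Subgroup.mem_centralizer_iff.2 fun m hm => ?_
      obtain ⟨s, hs, hsm⟩ := hMS m hm
      have e : φ m = φ s := (congrArg Subtype.val hsm).symm
      have hz' : z ∈ Z := H34.omegaOne_le Z hz
      have h1 : φ s ⟨z, hZOV hz⟩ = ⟨z, hZOV hz⟩ :=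
        (hfix s _).2 (Subgroup.mem_centralizer_iff.1 hz'.2 s hs)
      rw [← e] at h1
      exact (hfix m _).1 h1
    rw [Subgroup.eq_bot_iff_forall]
    intro y hy
    obtain ⟨m, rfl⟩ := hfs y
    refine MonoidHom.mem_ker.1 (hker.symm ▸ Subgroup.le_centralizer_iff.1 hle ?_)
    exact hy
  have h3' : ¬ Cfsg.Involves (Equiv.Perm (Fin 3)) φ.range := fun h =>
    h3 (H83.involves_of_surjective_hom f hfs h)
  -- `J(S)` centralizes `V`
  have hJ : Cfsg.thompsonSubgroupOf 2 (S : Subgroup X) ≤ centralizer (V : Set X) := by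
    rw [H34.thompsonSubgroupOf_eq]
    refine sSup_le fun A hA => ?_
    obtain ⟨hAS, hAea, hmax⟩ := hA
    have hcardfix : Nat.card (fixedSub φ.range.subtype ((A.map f : Subgroup φ.range) : Set φ.range)) =
        Nat.card (V ⊓ centralizer (A : Set X) : Subgroup X) := by
      rw [← Subgroup.card_map_of_injective V.subtype_injective]
      congr 2
      ext v
      constructor
      · rintro ⟨u, hu, rfl⟩
        exact ⟨u.2, Subgroup.mem_centralizer_iff.2 fun b hb => (hfix b u).1 (hu (f b) ⟨b, hb, rfl⟩)⟩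
      · rintro ⟨hv, hvc⟩
        refine ⟨⟨v, hv⟩, ?_, rfl⟩
        rintro _ ⟨b, hb, rfl⟩
        exact (hfix b _).2 (Subgroup.mem_centralizer_iff.1 hvc b hb)
    set C := A ⊓ f.ker with hC
    have hCV : C ≤ centralizer (V : Set X) := inf_le_right.trans hker.le
    have h1 : Nat.card C * Nat.card V ≤ Nat.card A * Nat.card (V ⊓ centralizer (A : Set X) : Subgroup X) := by
      refine (H34.card_mul_card_le C V).trans (Nat.mul_le_mul ?_ (Subgroup.card_le_of_le ?_))
      · exact hmax _ (sup_le (inf_le_left.trans hAS) hVS)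
          (H34.isElementaryAbelian_sup (H34.isElementaryAbelian_mono hAea inf_le_left) hVea hCV)
      · exact fun v hv => ⟨hv.2, le_centralizer_iff_isMulCommutative.2 hAea.1 hv.1.1⟩
    have hoff : Nat.card V ≤ Nat.card (A.map f) *
        Nat.card (fixedSub φ.range.subtype ((A.map f : Subgroup φ.range) : Set φ.range)) := by
      rw [hcardfix]
      rw [← H69.SFour.card_map_mul_card_inf_ker f A, ← hC, mul_comm (Nat.card (A.map f)),
        mul_assoc] at h1
      exact Nat.le_of_mul_le_mul_left h1 Nat.card_pos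
    have h0 := hL φ.range V φ.range.subtype Subtype.coe_injective hV2 h3' hcore (A.map f)
      (H34.isElementaryAbelian_map hAea f) hoff
    rw [Subgroup.map_eq_bot_iff] at h0
    exact h0.trans hker.le
  -- Frattini
  set J := Cfsg.thompsonSubgroupOf 2 (S : Subgroup X) with hJdef
  set K := centralizer (V : Set X) with hK
  haveI : K.Normal := Subgroup.normal_centralizer
  set R := (S : Subgroup X) ⊓ K with hR
  have hsyl : H23.IsSylowIn 2 R K := H61.sylowIn_inf_normal (H61.sylowIn_of_le S le_top) le_top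
    (Subgroup.normalizer_eq_top_iff.2 inferInstance).ge
  have hJR : J ≤ R := le_inf (H34.thompsonSubgroupOf_le _) hJ
  obtain ⟨m, hm, hle⟩ := H61.exists_cj_le hsyl
    ((cj_mono x (inf_le_right : R ≤ K)).trans (H61.cj_normal x K).le) ((S.2.to_le inf_le_left).map _)
  rw [cj_cj] at hle
  refine ⟨m⁻¹, ?_, m * x, ?_, (inv_mul_cancel_left m x).symm⟩
  · exact centralizer_le (SetLike.coe_subset_coe.2 hZOV) (inv_mem hm)
  · have h1 := mem_normalizer_of_cj (cj_eq_of_le hle)
    rw [hJdef, ← H34.thompsonSubgroupOf_eq_of_le hJR inf_le_left]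
    exact H34.normalizer_le_normalizer_thompson R h1

/-- If `Ω₁(Z(S))` is normal in a constrained group, so is `Z(S)`. -/
theorem center_normal (hchar : centralizer (Cfsg.pCore 2 X : Set X) ≤ Cfsg.pCore 2 X) (S : Sylow 2 X)
    (hn : normalizer
      (Cfsg.omegaOne 2 ((S : Subgroup X) ⊓ centralizer ((S : Subgroup X) : Set X)) : Set X) = ⊤)
    (x : X) :
    x ∈ normalizer (((S : Subgroup X) ⊓ centralizer ((S : Subgroup X) : Set X) : Subgroup X) : Set X) := by
  classical
  haveI : Fact (Nat.Prime 2) := ⟨Nat.prime_two⟩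
  set Z := (S : Subgroup X) ⊓ centralizer ((S : Subgroup X) : Set X) with hZ
  set Q := Cfsg.pCore 2 X with hQ
  haveI hQn : Q.Normal := H19.pCore_normal 2 X
  have hQS : Q ≤ (S : Subgroup X) := H19.pCore_le_sylow S
  have hZC : Z ≤ centralizer (Q : Set X) :=
    inf_le_right.trans (centralizer_le (show (Q : Set X) ⊆ (S : Subgroup X) from hQS))
  haveI : (centralizer (Q : Set X)).Normal := Subgroup.normal_centralizer
  haveI : (Cfsg.omegaOne 2 Z).Normal := Subgroup.normalizer_eq_top_iff.1 hn
  set X1 := centralizer (Cfsg.omegaOne 2 Z : Set X) with hX1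
  haveI : X1.Normal := Subgroup.normal_centralizer
  have hSX1 : (S : Subgroup X) ≤ X1 :=
    Subgroup.le_centralizer_iff.1 ((H34.omegaOne_le Z).trans inf_le_right)
  haveI hYn : (Q ⊓ centralizer (Q : Set X)).Normal := Subgroup.normal_inf_normal _ _
  haveI hYc : IsMulCommutative (Q ⊓ centralizer (Q : Set X) : Subgroup X) :=
    H34.isMulCommutative_inf_centralizer Q
  set Y := (Q ⊓ centralizer (Q : Set X)).subgroupOf X1 with hY
  haveI : IsMulCommutative Y := ⟨⟨fun a b => Subtype.ext (Subtype.ext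
    (setLike_mul_comm (s := Q ⊓ centralizer (Q : Set X)) a.2 b.2))⟩⟩
  have hc := H69.SFour.center_central (S.subtype hSX1) Y
    (fun y hy => hQS (Subgroup.mem_subgroupOf.1 hy).1)
    (fun z hz => Subgroup.mem_subgroupOf.2 (by
      have hz' : (z : X) ∈ Z := ⟨hz.1, Subgroup.mem_centralizer_iff.2 fun s hs =>
        congrArg Subtype.val (Subgroup.mem_centralizer_iff.1 hz.2 ⟨s, hSX1 hs⟩ hs)⟩
      exact ⟨hchar (hZC hz'), hZC hz'⟩))
    (fun t ht ht2 y => Subtype.ext (by
      have ht' : (t : X) ∈ Z := ⟨ht.1, Subgroup.mem_centralizer_iff.2 fun s hs =>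
        congrArg Subtype.val (Subgroup.mem_centralizer_iff.1 ht.2 ⟨s, hSX1 hs⟩ hs)⟩
      exact (Subgroup.mem_centralizer_iff.1 y.2 t (H34.mem_omegaOne ht' (by
        rw [pow_two]; exact congrArg Subtype.val ht2))).symm))
  have hX1le : X1 ≤ centralizer (Z : Set X) := fun y hy => Subgroup.mem_centralizer_iff.2 fun z hz =>
    (congrArg Subtype.val (hc ⟨z, hSX1 hz.1⟩ ⟨hz.1, Subgroup.mem_centralizer_iff.2 fun s hs =>
      Subtype.ext (Subgroup.mem_centralizer_iff.1 hz.2 _ hs)⟩ ⟨y, hy⟩)).symm
  obtain ⟨m, hm, hle⟩ := H61.exists_cj_le (H61.sylowIn_of_le S hSX1)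
    ((cj_mono x hSX1).trans (H61.cj_normal x X1).le) (S.2.map _)
  rw [cj_cj] at hle
  have h1 : m * x ∈ normalizer (Z : Set X) :=
    H23.normalizer_le_normalizer_inf_centralizer _ (mem_normalizer_of_cj (cj_eq_of_le hle))
  have h2 : m ∈ normalizer (Z : Set X) := centralizer_le_normalizer _ (hX1le hm)
  simpa using mul_mem (inv_mem h2) h1

end Cfsg.Agent.H51.SFourFree
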