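import Cfsg.Agent.H51.SFourFree.Control
import Cfsg.Agent.H61.QdFusConv
import Cfsg.Agent.H93.QdTwo

/-!
`S₄`-freeness and `Qd(p)`-freeness as control of strong fusion in all sections.
-/

set_option autoImplicit false
set_option linter.style.haveILetI false

namespace Cfsg.Agent.H51.SFourFree

open Cfsg.Agent.H61

universe u

variable {G : Type u} [Group G] [Finite G]

omit [Finite G] in
theorem involves_iff_of_equiv {P : Type*} [Group P] {Q : Type*} [Group Q] (e : P ≃* Q) :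
    Cfsg.Involves P G ↔ Cfsg.Involves Q G := by
  constructor <;> rintro ⟨K, R, hR, ⟨f⟩⟩
  · exact ⟨K, R, hR, ⟨f.trans e⟩⟩
  · exact ⟨K, R, hR, ⟨f.trans e.symm⟩⟩

theorem sfour_free_iff (hL : NoOffender.{u}) :
    ¬ Cfsg.Involves (Equiv.Perm (Fin 4)) G ↔
      ∀ (K R : Subgroup G) [_hR : (R.subgroupOf K).Normal],
        Cfsg.FamilyControlsStrongFusionIn 2
          ({fun P : Subgroup (↥K ⧸ R.subgroupOf K) =>
              P ⊓ Subgroup.centralizer ((P : Subgroup (↥K ⧸ R.subgroupOf K)) : Set (↥K ⧸ R.subgroupOf K)),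
            fun P : Subgroup (↥K ⧸ R.subgroupOf K) => Cfsg.thompsonSubgroupOf 2 P} :
              Set (Subgroup (↥K ⧸ R.subgroupOf K) → Subgroup (↥K ⧸ R.subgroupOf K))) ⊤ := by
  haveI : Fact (Nat.Prime 2) := ⟨Nat.prime_two⟩
  constructor
  · intro h4 K R hR
    rw [← wset_pair]
    exact family_of_fusionOK (fusionOK hL h4 K R)
  · rintro h ⟨K, R, hR, ⟨e⟩⟩
    haveI := hR
    obtain ⟨q⟩ := H93.exists_qd_two_equiv
    have hc := h K R
    rw [← wset_pair] at hc
    exact QdFus.not_family (q.trans e.symm) isChar_pair hc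

theorem qd_free_iff {p : ℕ} [Fact p.Prime] (hL : NoOffender.{u}) :
    ¬ Cfsg.Involves ↥(Cfsg.qd p) G ↔
      ∃ 𝓦 : Set (∀ (Q : Type u) [Group Q], Subgroup Q),
        (∀ W ∈ 𝓦, Cfsg.IsCharPFunctor.{u} p W) ∧
        ∀ (K R : Subgroup G) [_hR : (R.subgroupOf K).Normal],
          Cfsg.FamilyControlsStrongFusionIn p
            ((fun W => Cfsg.inducedFunctor (G := (↥K ⧸ R.subgroupOf K)) W) '' 𝓦) ⊤ := by
  constructor
  · intro hfree
    by_cases hp : p = 2
    · subst hp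
      obtain ⟨q⟩ := H93.exists_qd_two_equiv
      have h4 : ¬ Cfsg.Involves (Equiv.Perm (Fin 4)) G := fun h =>
        hfree ((involves_iff_of_equiv q).2 h)
      exact ⟨pairZJ, isChar_pair, fun K R hR => family_of_fusionOK (fusionOK hL h4 K R)⟩
    · refine ⟨{Cfsg.kInfLower}, ?_, fun K R hR => family_of_fusionOK
        (fusionOK_kInf_of_qdFree (Or.inl rfl) hp hfree K R)⟩
      rintro W rfl
      exact isCharPFunctor_kInfLower
  · rintro ⟨𝓦, h𝓦, h⟩ ⟨K, R, hR, ⟨e⟩⟩
    haveI := hR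
    exact QdFus.not_family e.symm h𝓦 (h K R)

end Cfsg.Agent.H51.SFourFree
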